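/-
A Sylow 2-subgroup of the centraliser of a transvection of SL(5,2) has centre of order two; hence if an involution of a finite group
has such a centraliser, a Sylow 2-subgroup of the centraliser is one of the group (helper16).
-/
import Cfsg.Agent.Lib.ToddCox.HeCent.Transv

set_option autoImplicit false
set_option maxRecDepth 100000

namespace Cfsg.Agent.Lib.ToddCox.HeCent

open Matrix Pointwise

abbrev M5 : Type := Matrix (Fin 5) (Fin 5) (ZMod 2)

/-- The position of a basis vector in the order 0, 2, 3, 4, 1. -/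
def pos : Fin 5 → ℕ := ![0, 4, 1, 2, 3]

theorem pos_inj : ∀ i j : Fin 5, pos i = pos j → i = j := by decide

theorem pos_lt_or : ∀ i j : Fin 5, i ≠ j → pos i < pos j ∨ pos j < pos i := by decide

/-- The unitriangular matrices in that order. -/
def IsUT (M : M5) : Prop := ∀ i j, (pos j < pos i → M i j = 0) ∧ (i = j → M i j = 1)

theorem isUT_one : IsUT 1 := by
  intro i j
  constructor
  · intro h
    have : i ≠ j := by
      rintro rfl
      exact lt_irrefl _ h
    exact Matrix.one_apply_ne this
  · rintro rfl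
    exact Matrix.one_apply_eq i

theorem isUT_mul {A B : M5} (hA : IsUT A) (hB : IsUT B) : IsUT (A * B) := by
  intro i j
  constructor
  · intro h
    rw [Matrix.mul_apply]
    apply Finset.sum_eq_zero
    intro k _
    by_cases hk : pos k < pos i
    · rw [(hA i k).1 hk, zero_mul]
    · rw [(hB k j).1 (by omega), mul_zero]
  · rintro rfl
    rw [Matrix.mul_apply, Finset.sum_eq_single i]
    · rw [(hA i i).2 rfl, (hB i i).2 rfl, mul_one]
    · intro k _ hk
      rcases pos_lt_or k i hk with h | h
      · rw [(hA i k).1 h, zero_mul]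
      · rw [(hB k i).1 h, mul_zero]
    · intro h
      exact absurd (Finset.mem_univ i) h

/-- The reordering. -/
def σ5 : Equiv.Perm (Fin 5) where
  toFun := ![0, 2, 3, 4, 1]
  invFun := ![0, 4, 1, 2, 3]
  left_inv := by decide
  right_inv := by decide

theorem pos_σ : ∀ k : Fin 5, pos (σ5 k) = k.val := by decide

theorem isUT_det {M : M5} (h : IsUT M) : M.det = 1 := by
  rw [← Matrix.det_submatrix_equiv_self σ5 M]
  have hb : (M.submatrix σ5 σ5).BlockTriangular id := by
    intro i j hij
    show M (σ5 i) (σ5 j) = 0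
    apply (h _ _).1
    rw [pos_σ, pos_σ]
    exact hij
  rw [Matrix.det_of_isUpperTriangular hb]
  apply Finset.prod_eq_one
  intro i _
  exact (h _ _).2 rfl

/-- The subgroup of unitriangular matrices. -/
def UT : Subgroup SL5 where
  carrier := {g | IsUT g.1}
  one_mem' := isUT_one
  mul_mem' := fun {a b} ha hb => by
    show IsUT (a * b).1
    rw [Matrix.SpecialLinearGroup.coe_mul]
    exact isUT_mul ha hb
  inv_mem' := fun {g} hg => by
    have hpow : ∀ k : ℕ, IsUT (g ^ k).1 := by
      intro k
      induction k with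
      | zero =>
        rw [pow_zero]
        exact isUT_one
      | succ k ih =>
        rw [pow_succ, Matrix.SpecialLinearGroup.coe_mul]
        exact isUT_mul ih hg
    have h1 : g⁻¹ = g ^ (orderOf g - 1) := by
      apply inv_eq_of_mul_eq_one_right
      rw [← pow_succ', Nat.sub_add_cancel (orderOf_pos g), pow_orderOf_eq_one]
    show IsUT (g⁻¹).1
    rw [h1]
    exact hpow _

theorem mem_UT {g : SL5} : g ∈ UT ↔ IsUT g.1 := Iff.rfl

abbrev Pat : Type := {p : Fin 5 × Fin 5 // pos p.1 < pos p.2}

theorem card_Pat : Fintype.card Pat = 10 := by decide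

/-- The unitriangular matrix with given entries. -/
def mkM (f : Pat → ZMod 2) : M5 := fun i j =>
  if h : pos i < pos j then f ⟨(i, j), h⟩ else if i = j then 1 else 0

theorem mkM_UT (f : Pat → ZMod 2) : IsUT (mkM f) := by
  intro i j
  constructor
  · intro h
    have h1 : ¬ pos i < pos j := by omega
    have h2 : i ≠ j := by
      rintro rfl
      exact lt_irrefl _ h
    simp [mkM, h1, h2]
  · rintro rfl
    simp [mkM]

/-- The unitriangular group is parametrised by its entries above the diagonal. -/
def utEquiv : UT ≃ (Pat → ZMod 2) where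
  toFun g := fun p => g.1.1 p.1.1 p.1.2
  invFun f := ⟨⟨mkM f, isUT_det (mkM_UT f)⟩, mkM_UT f⟩
  left_inv g := by
    apply Subtype.ext
    apply Subtype.ext
    ext i j
    show mkM (fun p : Pat => g.1.1 p.1.1 p.1.2) i j = g.1.1 i j
    unfold mkM
    split_ifs with h1 h2
    · rfl
    · rw [h2]
      exact ((g.2 j j).2 rfl).symm
    · have h3 : pos j < pos i := by
        rcases pos_lt_or i j h2 with h | h
        · exact absurd h h1
        · exact h
      exact ((g.2 i j).1 h3).symm
  right_inv f := by
    ext p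
    show mkM f p.1.1 p.1.2 = f p
    unfold mkM
    rw [dif_pos p.2]

theorem card_UT : Nat.card UT = 2 ^ 10 := by
  rw [Nat.card_congr utEquiv, Nat.card_eq_fintype_card, Fintype.card_fun, card_Pat, ZMod.card]

theorem single_ne {i j a b : Fin 5} (h : ¬ (a = i ∧ b = j)) : Matrix.single i j (1 : ZMod 2) a b = 0 :=
  Matrix.single_apply_of_ne i j 1 a b (by
    rintro ⟨rfl, rfl⟩
    exact h ⟨rfl, rfl⟩)

theorem pos0 : ∀ j : Fin 5, j ≠ 0 → pos 0 < pos j := by decide
theorem pos1 : ∀ i : Fin 5, i ≠ 1 → pos i < pos 1 := by decide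

/-- The elementary matrix in the unitriangular group. -/
theorem EE_isUT (i j : Fin 5) (hij : i ≠ j) (h : pos i < pos j) : IsUT (EE i j hij).1 := by
  intro a b
  show (pos b < pos a → Matrix.transvection i j (1 : ZMod 2) a b = 0) ∧ (a = b → Matrix.transvection i j (1 : ZMod 2) a b = 1)
  unfold Matrix.transvection
  constructor
  · intro hab
    have h1 : a ≠ b := by
      rintro rfl
      exact lt_irrefl _ hab
    have h2 : ¬ (a = i ∧ b = j) := by
      rintro ⟨rfl, rfl⟩
      omega
    rw [Matrix.add_apply, Matrix.one_apply_ne h1, single_ne h2, add_zero]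
  · rintro rfl
    have h2 : ¬ (a = i ∧ a = j) := by
      rintro ⟨rfl, h3⟩
      exact hij h3
    rw [Matrix.add_apply, Matrix.one_apply_eq, single_ne h2, add_zero]

/-- Commuting with an elementary matrix. -/
theorem comm_EE {g : SL5} {i j : Fin 5} {hij : i ≠ j} (h : g * EE i j hij = EE i j hij * g) (a b : Fin 5) :
    (g.1 * Matrix.single i j (1 : ZMod 2)) a b = (Matrix.single i j (1 : ZMod 2) * g.1) a b := by
  have h1 : g.1 * Matrix.transvection i j (1 : ZMod 2) = Matrix.transvection i j (1 : ZMod 2) * g.1 :=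
    congrArg Subtype.val h
  have h2 : g.1 * Matrix.single i j (1 : ZMod 2) = Matrix.single i j (1 : ZMod 2) * g.1 := by
    unfold Matrix.transvection at h1
    rw [mul_add, add_mul, mul_one, one_mul] at h1
    exact add_left_cancel h1
  rw [h2]

theorem row_zero {g : SL5} {i j : Fin 5} {hij : i ≠ j} (h : g * EE i j hij = EE i j hij * g) (b : Fin 5) (hb : b ≠ j) :
    g.1 j b = 0 := by
  have h2 := comm_EE h i b
  rw [Matrix.mul_single_apply_of_ne _ _ _ _ _ hb, Matrix.single_mul_apply_same] at h2
  simpa using h2.symm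

theorem col_zero {g : SL5} {i j : Fin 5} {hij : i ≠ j} (h : g * EE i j hij = EE i j hij * g) (a : Fin 5) (ha : a ≠ i) :
    g.1 a i = 0 := by
  have h2 := comm_EE h a j
  rw [Matrix.mul_single_apply_same, Matrix.single_mul_apply_of_ne _ _ _ _ _ ha] at h2
  simpa using h2

/-- A central element of the unitriangular group is the identity or the transvection. -/
theorem UT_center {g : SL5} (hg : g ∈ UT) (hc : ∀ x ∈ UT, g * x = x * g) : g = 1 ∨ g = s0 := by
  have hdiag : ∀ a, g.1 a a = 1 := fun a => (hg a a).2 rfl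
  have hrow : ∀ j b : Fin 5, j ≠ 0 → b ≠ j → g.1 j b = 0 := by
    intro j b hj hb
    have h0 : (0 : Fin 5) ≠ j := hj.symm
    have hlt : pos 0 < pos j := pos0 j hj
    exact row_zero (hc (EE 0 j h0) (EE_isUT 0 j h0 hlt)) b hb
  have hcol : ∀ i a : Fin 5, i ≠ 1 → a ≠ i → g.1 a i = 0 := by
    intro i a hi ha
    have h0 : i ≠ (1 : Fin 5) := hi
    have hlt : pos i < pos 1 := pos1 i hi
    exact col_zero (hc (EE i 1 h0) (EE_isUT i 1 h0 hlt)) a ha
  have hc01 : g.1 0 1 = 0 ∨ g.1 0 1 = 1 := by
    generalize g.1 0 1 = x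
    revert x
    decide
  rcases hc01 with h | h
  · left
    apply Subtype.ext
    ext a b
    show g.1 a b = (1 : M5) a b
    by_cases hab : a = b
    · subst hab
      rw [hdiag, Matrix.one_apply_eq]
    · rw [Matrix.one_apply_ne hab]
      by_cases ha : a = 0
      · subst ha
        by_cases hb : b = 1
        · subst hb
          exact h
        · exact hcol b 0 hb hab
      · exact hrow a b ha (Ne.symm hab)
  · right
    apply Subtype.ext
    ext a b
    show g.1 a b = Matrix.transvection 0 1 (1 : ZMod 2) a b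
    unfold Matrix.transvection
    rw [Matrix.add_apply]
    by_cases h01 : a = 0 ∧ b = 1
    · obtain ⟨rfl, rfl⟩ := h01
      rw [h, Matrix.one_apply_ne (by decide), Matrix.single_apply_same, zero_add]
    · rw [single_ne h01, add_zero]
      by_cases hab : a = b
      · subst hab
        rw [hdiag, Matrix.one_apply_eq]
      · rw [Matrix.one_apply_ne hab]
        by_cases ha : a = 0
        · subst ha
          have hb : b ≠ 1 := by
            rintro rfl
            exact h01 ⟨rfl, rfl⟩
          exact hcol b 0 hb hab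
        · exact hrow a b ha (Ne.symm hab)

theorem UT_le : UT ≤ Cs := by
  intro g hg
  rw [Subgroup.mem_centralizer_singleton_iff]
  apply Subtype.ext
  show g.1 * Matrix.transvection 0 1 (1 : ZMod 2) = Matrix.transvection 0 1 (1 : ZMod 2) * g.1
  unfold Matrix.transvection
  rw [mul_add, add_mul, mul_one, one_mul]
  congr 1
  ext a b
  by_cases hb : b = 1
  · subst hb
    rw [Matrix.mul_single_apply_same]
    by_cases ha : a = 0
    · subst ha
      rw [Matrix.single_mul_apply_same, (hg 0 0).2 rfl, (hg 1 1).2 rfl]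
    · rw [Matrix.single_mul_apply_of_ne _ _ _ _ _ ha, (hg a 0).1 (pos0 a ha)]
      simp
  · rw [Matrix.mul_single_apply_of_ne _ _ _ _ _ hb]
    by_cases ha : a = 0
    · subst ha
      rw [Matrix.single_mul_apply_same, (hg 1 b).1 (pos1 b hb)]
      simp
    · rw [Matrix.single_mul_apply_of_ne _ _ _ _ _ ha]

theorem s0_mem_UT : s0 ∈ UT := EE_isUT 0 1 (by decide) (by decide)

/-! Orders. -/

theorem card_SL_dvd : Nat.card SL5 ∣ 9999360 := by
  have h1 : Nat.card (GL (Fin 5) (ZMod 2)) = 9999360 := by
    rw [Matrix.card_GL_field]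
    simp [Fin.prod_univ_five, ZMod.card]
  rw [← h1]
  refine Subgroup.card_dvd_of_injective (Matrix.SpecialLinearGroup.toGL (n := Fin 5) (R := ZMod 2)) ?_
  intro a b hab
  apply Subtype.ext
  exact congrArg Units.val hab

theorem factorization_Cs : (Nat.card Cs).factorization 2 = 10 := by
  have hne : Nat.card Cs ≠ 0 := Nat.card_pos.ne'
  have h1 : 2 ^ 10 ∣ Nat.card Cs := by
    have h2 := Subgroup.card_subgroup_dvd_card (UT.subgroupOf Cs)
    rwa [Nat.card_congr (Subgroup.subgroupOfEquivOfLe UT_le).toEquiv, card_UT] at h2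
  have h3 : Nat.card Cs ∣ 9999360 := (Subgroup.card_subgroup_dvd_card Cs).trans card_SL_dvd
  have h4 : ¬ 2 ^ 11 ∣ Nat.card Cs := by
    intro h5
    have := h5.trans h3
    norm_num at this
  have h5 := (Nat.prime_two.pow_dvd_iff_le_factorization hne).mp h1
  have h6 : ¬ 11 ≤ (Nat.card Cs).factorization 2 := fun h =>
    h4 ((Nat.prime_two.pow_dvd_iff_le_factorization hne).mpr h)
  omega

instance : Fact (Nat.Prime 2) := ⟨Nat.prime_two⟩

/-- The unitriangular matrices as a Sylow subgroup of the centraliser. -/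
noncomputable def UTs : Sylow 2 Cs :=
  Sylow.ofCard (UT.subgroupOf Cs) (by
    rw [factorization_Cs, Nat.card_congr (Subgroup.subgroupOfEquivOfLe UT_le).toEquiv, card_UT])

theorem mem_UTs {x : Cs} : x ∈ UTs ↔ x.1 ∈ UT := Iff.rfl

/-- A central element of a Sylow 2-subgroup of the centraliser of the transvection is the identity or the transvection. -/
theorem sylow_center (P : Sylow 2 Cs) {w : Cs} (hw : w ∈ P) (hc : ∀ x ∈ P, w * x = x * w) : w = 1 ∨ w.1 = s0 := by
  obtain ⟨c, hcP⟩ := MulAction.exists_smul_eq Cs UTs P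
  have hmem : ∀ y : Cs, y ∈ P ↔ c⁻¹ * y * c ∈ UTs := by
    intro y
    rw [← hcP]
    show y ∈ ((c • UTs : Sylow 2 Cs) : Subgroup Cs) ↔ _
    rw [Sylow.coe_subgroup_smul, Subgroup.mem_pointwise_smul_iff_inv_smul_mem]
    show (MulAut.conj c)⁻¹ y ∈ _ ↔ _
    rw [MulAut.conj_inv_apply]
    rfl
  have h1 : c⁻¹ * w * c ∈ UTs := (hmem w).mp hw
  have h2 : (c⁻¹ * w * c).1 = 1 ∨ (c⁻¹ * w * c).1 = s0 := by
    apply UT_center h1
    intro x hx
    -- `x` in the standard subgroup, so its conjugate by `c` lies in `P`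
    have hxc : (⟨x, UT_le hx⟩ : Cs) ∈ UTs := hx
    have h3 : c * ⟨x, UT_le hx⟩ * c⁻¹ ∈ P := by
      rw [hmem]
      simpa [mul_assoc] using hxc
    have h4 := hc _ h3
    have h5 : c⁻¹ * w * c * ⟨x, UT_le hx⟩ = ⟨x, UT_le hx⟩ * (c⁻¹ * w * c) := by
      have h6 := congrArg (fun y => c⁻¹ * y * c) h4
      simpa [mul_assoc] using h6
    exact congrArg Subtype.val h5
  rcases h2 with h | h
  · left
    have h3 : c⁻¹ * w * c = 1 := Subtype.ext h
    have h4 : w = c * (c⁻¹ * w * c) * c⁻¹ := by group
    rw [h4, h3]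
    group
  · right
    have h3 : s0 * c.1 = c.1 * s0 := (Subgroup.mem_centralizer_singleton_iff.mp c.2).symm
    have h4 : w.1 = c.1 * (c⁻¹ * w * c).1 * (c.1)⁻¹ := by
      show w.1 = c.1 * ((c.1)⁻¹ * w.1 * c.1) * (c.1)⁻¹
      group
    rw [h4, h, ← h3]
    group

/-- The statement about a group with such a centraliser. -/
theorem odd_index_aux {G : Type*} [Group G] [Finite G] (z : G) (hz : orderOf z = 2) (C : Subgroup G)
    (hC : C = Subgroup.centralizer ({z} : Set G)) (e : C ≃* Cs) (T : Sylow 2 C) :
    ¬ 2 ∣ ((T : Subgroup C).map (Subgroup.subtype C)).index := by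
  -- the element in the centraliser
  have hzC : z ∈ C := by
    rw [hC]
    exact Subgroup.mem_centralizer_singleton_iff.mpr rfl
  let zc : C := ⟨z, hzC⟩
  have hzc_central : ∀ x : C, x * zc = zc * x := by
    intro x
    apply Subtype.ext
    exact Subgroup.mem_centralizer_singleton_iff.mp ((le_of_eq hC) x.2)
  have hzc_order : orderOf zc = 2 := by
    rw [← hz]
    exact Subgroup.orderOf_mk z hzC
  -- `zc` lies in `T`
  have hzcT : zc ∈ T := by
    have hn : (Subgroup.zpowers zc).Normal := by
      constructor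
      intro n hn g
      obtain ⟨k, rfl⟩ := Subgroup.mem_zpowers_iff.mp hn
      have : g * zc ^ k * g⁻¹ = zc ^ k := by
        have h1 : Commute g (zc ^ k) := (Commute.zpow_right (show Commute g zc from hzc_central g) k)
        rw [h1.eq]
        group
      rw [this]
      exact Subgroup.zpow_mem_zpowers zc k
    have hp : IsPGroup 2 (Subgroup.zpowers zc) := by
      apply IsPGroup.of_card (n := 1)
      rw [Nat.card_zpowers, hzc_order, pow_one]
    exact (IsPGroup.le_sylow_of_normal hp T) (Subgroup.mem_zpowers zc)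
  -- the image of `T`
  have hcardT : Nat.card (T.toSubgroup.map e.toMonoidHom) = 2 ^ (Nat.card Cs).factorization 2 := by
    rw [Subgroup.card_map_of_injective e.injective, Sylow.card_eq_multiplicity, Nat.card_congr e.toEquiv]
  let Ts : Sylow 2 Cs := Sylow.ofCard (T.toSubgroup.map e.toMonoidHom) hcardT
  have hTs : ∀ y : C, e y ∈ Ts ↔ y ∈ T := by
    intro y
    show e y ∈ T.toSubgroup.map e.toMonoidHom ↔ _
    constructor
    · rintro ⟨y', hy', h⟩
      have : y' = y := e.injective h
      rw [← this]
      exact hy'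
    · intro hy
      exact ⟨y, hy, rfl⟩
  -- the central elements of the image
  have hcen : ∀ y : C, y ∈ T → (∀ x ∈ T, y * x = x * y) → y = 1 ∨ y = zc := by
    intro y hy hc
    have hzc2 : (e zc).1 = s0 := by
      rcases sylow_center Ts ((hTs zc).mpr hzcT) (by
        intro x hx
        obtain ⟨x', rfl⟩ := e.surjective x
        rw [← map_mul, ← map_mul, ← hzc_central x']) with h | h
      · exfalso
        have h1 : zc = 1 := e.injective (by rw [h, map_one])
        rw [h1, orderOf_one] at hzc_order
        exact absurd hzc_order (by norm_num)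
      · exact h
    rcases sylow_center Ts ((hTs y).mpr hy) (by
        intro x hx
        obtain ⟨x', rfl⟩ := e.surjective x
        have hx' : x' ∈ T := (hTs x').mp hx
        rw [← map_mul, ← map_mul, hc x' hx']) with h | h
    · left
      exact e.injective (by rw [h, map_one])
    · right
      apply e.injective
      apply Subtype.ext
      rw [h, hzc2]
  -- the normaliser
  obtain ⟨S, hS⟩ : ∃ S, S = (T : Subgroup C).map (Subgroup.subtype C) := ⟨_, rfl⟩
  rw [← hS]
  have hzS : z ∈ S := by
    rw [hS]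
    exact ⟨zc, hzcT, rfl⟩
  have hScomm : ∀ y ∈ S, y * z = z * y := by
    intro y0 hy0
    rw [hS] at hy0
    obtain ⟨y, _, rfl⟩ := hy0
    exact Subgroup.mem_centralizer_singleton_iff.mp ((le_of_eq hC) y.2)
  have hNle : Subgroup.normalizer (S : Set G) ≤ C := by
    intro x hx
    rw [hC, Subgroup.mem_centralizer_singleton_iff]
    have hN : ∀ h, h ∈ S ↔ x * h * x⁻¹ ∈ S := Subgroup.mem_normalizer_iff.mp hx
    -- the conjugate of `z`
    have h1 : x * z * x⁻¹ ∈ S := (hN z).mp hzS
    rw [hS] at h1
    obtain ⟨y, hy, hyv⟩ := h1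
    have hyv' : (y : G) = x * z * x⁻¹ := hyv
    have hc : ∀ t ∈ T, y * t = t * y := by
      intro t ht
      apply Subtype.ext
      show (y : G) * t = t * y
      have h2 : (t : G) ∈ S := by
        rw [hS]
        exact ⟨t, ht, rfl⟩
      have h3 : x⁻¹ * t * x ∈ S := by
        rw [hN]
        simpa [mul_assoc] using h2
      have h4 := hScomm _ h3
      rw [hyv']
      have h5 : x * (x⁻¹ * t * x * z) * x⁻¹ = x * (z * (x⁻¹ * t * x)) * x⁻¹ := by rw [h4]
      have h6 : (t : G) * (x * z * x⁻¹) = x * (x⁻¹ * t * x * z) * x⁻¹ := by group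
      have h7 : x * z * x⁻¹ * (t : G) = x * (z * (x⁻¹ * t * x)) * x⁻¹ := by group
      rw [h6, h7, h5]
    rcases hcen y hy hc with h | h
    · exfalso
      have h2 : x * z * x⁻¹ = 1 := by
        rw [← hyv', h]
        rfl
      have h3 : z = 1 := by
        have h4 : z = x⁻¹ * (x * z * x⁻¹) * x := by group
        rw [h4, h2]
        group
      rw [h3, orderOf_one] at hz
      exact absurd hz (by norm_num)
    · have h2 : x * z * x⁻¹ = z := by
        rw [← hyv', h]
      have h3 : x * z = z * x := by
        have h4 : x * z = x * z * x⁻¹ * x := by group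
        rw [h4, h2]
      exact h3
  -- counting
  intro hdvd
  have hcS : Nat.card S = 2 ^ (Nat.card C).factorization 2 := by
    rw [hS, Subgroup.card_map_of_injective (Subgroup.subtype_injective C), Sylow.card_eq_multiplicity]
  obtain ⟨m, hm⟩ := hdvd
  have h1 : 2 ^ ((Nat.card C).factorization 2 + 1) ∣ Nat.card G := by
    have h2 := Subgroup.card_mul_index S
    rw [hcS, hm] at h2
    rw [← h2, pow_succ]
    exact ⟨m, by ring⟩
  have h2 := Sylow.prime_dvd_card_quotient_normalizer h1 hcS
  -- the normaliser has index odd over `S`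
  obtain ⟨N, hNdef⟩ : ∃ N, N = Subgroup.normalizer (S : Set G) := ⟨_, rfl⟩
  rw [← hNdef] at h2 hNle
  have h3 : Nat.card N = Nat.card (N ⧸ S.comap N.subtype) * Nat.card (S.comap N.subtype) :=
    Subgroup.card_eq_card_quotient_mul_card_subgroup _
  have hSN : S ≤ N := by
    rw [hNdef]
    exact Subgroup.le_normalizer
  have h4 : Nat.card (S.comap N.subtype) = Nat.card S := by
    have : S.comap N.subtype = S.subgroupOf N := rfl
    rw [this]
    exact Nat.card_congr (Subgroup.subgroupOfEquivOfLe hSN).toEquiv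
  have h5 : Nat.card N ∣ Nat.card C := Subgroup.card_dvd_of_le hNle
  obtain ⟨q, hq⟩ := h2
  have h6 : 2 ^ ((Nat.card C).factorization 2 + 1) ∣ Nat.card C := by
    refine Dvd.dvd.trans ?_ h5
    rw [h3, h4, hcS, hq, pow_succ]
    exact ⟨q, by ring⟩
  have hne : Nat.card C ≠ 0 := Nat.card_pos.ne'
  have h7 := (Nat.prime_two.pow_dvd_iff_le_factorization hne).mp h6
  omega

theorem odd_index {G : Type*} [Group G] [Finite G] (s : SL5)
    (hs : (s : Matrix (Fin 5) (Fin 5) (ZMod 2)) = Matrix.transvection 0 1 1) (z : G) (hz : orderOf z = 2)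
    (e : (Subgroup.centralizer ({z} : Set G)) ≃* Subgroup.centralizer ({s} : Set SL5))
    (T : Sylow 2 (Subgroup.centralizer ({z} : Set G))) :
    ¬ 2 ∣ ((T : Subgroup (Subgroup.centralizer ({z} : Set G))).map (Subgroup.subtype (Subgroup.centralizer ({z} : Set G)))).index := by
  have hs0 : s = s0 := Subtype.ext hs
  subst hs0
  exact odd_index_aux z hz _ rfl e T

end Cfsg.Agent.Lib.ToddCox.HeCent
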